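import Mathlib
import Cfsg.Agent.Lib.Helper60.OFM.Syl4Defs

/-!
# OFM (S5978), cut of [SYL4]: leaf [CENTW] (helper47)

An `r`-group `P` of matrices acting nontrivially on an invariant subspace `W` contains an element
`z`, nontrivial on `W`, with `z ^ r` trivial on `W`, commuting on `W` with all of `P`.
-/

set_option autoImplicit false

namespace Cfsg.Agent.Lib.Helper47.OFM

open Matrix Cfsg.Agent.Lib.Helper60.OFM

universe u

/-- [CENTW] -/
theorem pkgCentW : PkgCentW.{u} := by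
  intro F _ _ ι _ _ r hr P hP W hinv hnt
  haveI : Fact r.Prime := ⟨hr⟩
  -- the action of `P` on `W`
  letI act : MulAction ↥P ↥W :=
    { smul := fun g w => ⟨((g : GL ι F) : Matrix ι ι F) *ᵥ (w : ι → F), hinv g.1 g.2 w.1 w.2⟩
      one_smul := by
        intro w
        apply Subtype.ext
        show ((1 : GL ι F) : Matrix ι ι F) *ᵥ (w : ι → F) = w
        simp
      mul_smul := by
        intro g h w
        apply Subtype.ext
        show (((g : GL ι F) * (h : GL ι F) : GL ι F) : Matrix ι ι F) *ᵥ (w : ι → F)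
          = ((g : GL ι F) : Matrix ι ι F) *ᵥ (((h : GL ι F) : Matrix ι ι F) *ᵥ (w : ι → F))
        rw [Units.val_mul, Matrix.mulVec_mulVec] }
  have hsmul : ∀ (g : ↥P) (w : ↥W), ((g • w : ↥W) : ι → F)
      = ((g : GL ι F) : Matrix ι ι F) *ᵥ (w : ι → F) := fun _ _ => rfl
  let φ : ↥P →* Equiv.Perm ↥W := MulAction.toPermHom ↥P ↥W
  have hφ : ∀ (g : ↥P) (w : ↥W), φ g w = g • w := fun _ _ => rfl
  haveI : Finite ↥W := Finite.of_injective (fun w : ↥W => (w : ι → F)) Subtype.val_injective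
  have hR : IsPGroup r ↥φ.range := hP.of_surjective φ.rangeRestrict φ.rangeRestrict_surjective
  haveI : Nontrivial ↥φ.range := by
    by_contra hcon
    rw [not_nontrivial_iff_subsingleton] at hcon
    apply hnt
    intro g hg w hw
    have h1 : (⟨φ ⟨g, hg⟩, ⟨⟨g, hg⟩, rfl⟩⟩ : ↥φ.range) = 1 := Subsingleton.elim _ _
    have h2 : φ ⟨g, hg⟩ = 1 := congrArg Subtype.val h1
    have h3 : φ ⟨g, hg⟩ ⟨w, hw⟩ = ⟨w, hw⟩ := by rw [h2]; rfl
    have h4 := congrArg Subtype.val h3
    rw [hφ, hsmul] at h4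
    exact h4
  haveI := hR.center_nontrivial
  have hZ : IsPGroup r ↥(Subgroup.center ↥φ.range) := hR.to_subgroup _
  have hdvd : r ∣ Nat.card ↥(Subgroup.center ↥φ.range) := by
    rcases hZ.card_eq_or_dvd with h | h
    · exact absurd h (ne_of_gt Finite.one_lt_card)
    · exact h
  obtain ⟨c, hc⟩ := exists_prime_orderOf_dvd_card' r hdvd
  obtain ⟨z, hz⟩ := (c : ↥φ.range).2
  have hc1 : c ≠ 1 := by
    intro h
    rw [h, orderOf_one] at hc
    exact hr.one_lt.ne hc
  have hcr : c ^ r = 1 := by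
    rw [← hc]
    exact pow_orderOf_eq_one c
  have hzr : φ z ^ r = 1 := by
    rw [hz]
    have h1 := congrArg (fun t : ↥(Subgroup.center ↥φ.range) => ((t : ↥φ.range) : Equiv.Perm ↥W)) hcr
    simpa using h1
  have hcomm : ∀ g : ↥P, φ g * φ z = φ z * φ g := by
    intro g
    have h1 := Subgroup.mem_center_iff.1 c.2 ⟨φ g, ⟨g, rfl⟩⟩
    have h2 := congrArg Subtype.val h1
    rw [hz]
    simpa using h2
  refine ⟨z.1, z.2, ?_, ?_, ?_⟩
  · by_contra hcon
    push Not at hcon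
    apply hc1
    apply Subtype.ext
    apply Subtype.ext
    show ((c : ↥φ.range) : Equiv.Perm ↥W) = 1
    rw [← hz]
    ext w
    rw [hφ, hsmul]
    exact congrFun (hcon w.1 w.2) _
  · intro w hw
    have h1 : (φ z ^ r) ⟨w, hw⟩ = ⟨w, hw⟩ := by rw [hzr]; rfl
    rw [← map_pow, hφ] at h1
    have h2 := congrArg Subtype.val h1
    rw [hsmul] at h2
    rw [← Units.val_pow_eq_pow_val]
    exact h2
  · intro g hg w hw
    have h1 : (φ ⟨g, hg⟩ * φ z) ⟨w, hw⟩ = (φ z * φ ⟨g, hg⟩) ⟨w, hw⟩ := by rw [hcomm]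
    rw [Equiv.Perm.mul_apply, Equiv.Perm.mul_apply, hφ, hφ, hφ, hφ] at h1
    have h2 := congrArg Subtype.val h1
    rw [hsmul, hsmul, hsmul, hsmul] at h2
    exact h2

end Cfsg.Agent.Lib.Helper47.OFM
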