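import Mathlib
import Cfsg.Agent.Lib.Helper60.OFM.Syl4Defs
import Cfsg.Agent.Lib.Helper87.OHyp.Perp

/-!
# OFM (S5978), cut of [SYL4]: leaf [RESTR] (helper47)

An isometry `z` stabilizing the nondegenerate subspace `W` agrees on `W` with an isometry `z'`
that is trivial on the orthogonal complement of `W`.
-/

set_option autoImplicit false

namespace Cfsg.Agent.Lib.Helper47.OFM

open Matrix Cfsg.Agent.Lib.Helper60.OFM Cfsg.Agent.Lib.Helper23.OHyp

universe u

/-- [RESTR] -/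
theorem pkgRestr : PkgRestr.{u} := by
  intro F _ _ _ ι _ _ Q hQ W hW z hz hzW
  have hTopNd : Nd Q (⊤ : Submodule F (ι → F)) := by
    intro v _ hv
    obtain ⟨⟨y, hy⟩, ⟨y', hy'⟩⟩ := hQ.nondegenerate v hv
    exact ⟨⟨y, Submodule.mem_top, hy⟩, ⟨y', Submodule.mem_top, hy'⟩⟩
  have hone : ∀ v, Q ((1 : Matrix ι ι F) *ᵥ v) = Q v := by
    intro v
    rw [Matrix.one_mulVec]
  have hInv1 : ∀ U : Submodule F (ι → F), Inv (1 : Matrix ι ι F) U := by
    intro U v hv
    obtain ⟨w, hw, rfl⟩ := hv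
    simpa using hw
  obtain ⟨W', -, -, -, hperp, hsup, -⟩ :=
    Cfsg.Agent.Lib.Helper87.OHyp.pkgPerp F ι Q hQ (1 : Matrix ι ι F) hone (by simp) ⊤ W le_top
      (hInv1 ⊤) (hInv1 W) hTopNd hW
  have hdisj : W ⊓ W' = ⊥ := by
    rw [eq_bot_iff]
    rintro v ⟨hv1, hv2⟩
    rw [Submodule.mem_bot]
    by_contra hne
    obtain ⟨⟨y, hy, hy'⟩, -⟩ := hW v hv1 hne
    exact hy' (hperp y hy v hv2)
  have hc : IsCompl W W' := ⟨disjoint_iff.2 hdisj, codisjoint_iff.2 hsup⟩
  have hdec : ∀ v : ι → F, ∃ w ∈ W, ∃ w' ∈ W', w + w' = v := by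
    intro v
    have hv : v ∈ W ⊔ W' := hsup ▸ Submodule.mem_top
    exact Submodule.mem_sup.1 hv
  let zW : ↥W →ₗ[F] (ι → F) := (Matrix.toLin' z).comp W.subtype
  let f : (ι → F) →ₗ[F] (ι → F) := LinearMap.ofIsCompl hc zW W'.subtype
  have hfW : ∀ w ∈ W, f w = z *ᵥ w := by
    intro w hw
    have h1 : f ((⟨w, hw⟩ : ↥W) : ι → F) = zW ⟨w, hw⟩ := LinearMap.ofIsCompl_apply_left hc ⟨w, hw⟩
    rw [h1]
    show Matrix.toLin' z w = z *ᵥ w
    rw [Matrix.toLin'_apply]
  have hfW' : ∀ w ∈ W', f w = w := by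
    intro w hw
    have h1 : f ((⟨w, hw⟩ : ↥W') : ι → F) = W'.subtype ⟨w, hw⟩ :=
      LinearMap.ofIsCompl_apply_right hc ⟨w, hw⟩
    rw [h1]
    rfl
  have hmv : ∀ v, (LinearMap.toMatrix' f) *ᵥ v = f v := by
    intro v
    rw [← Matrix.toLin'_apply, Matrix.toLin'_toMatrix']
  refine ⟨LinearMap.toMatrix' f, ?_, ?_, ?_⟩
  · intro v
    rw [hmv]
    obtain ⟨w, hw, w', hw', rfl⟩ := hdec v
    rw [map_add, hfW w hw, hfW' w' hw']
    have h1 : QuadraticMap.polar Q (z *ᵥ w) w' = 0 := hperp _ (hzW w hw) w' hw'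
    have h2 : QuadraticMap.polar Q w w' = 0 := hperp w hw w' hw'
    unfold QuadraticMap.polar at h1 h2
    rw [hz] at h1
    linear_combination h1 - h2
  · intro w hw
    rw [hmv, hfW w hw]
  · intro n hn
    have hpowW : ∀ k : ℕ, ∀ w ∈ W, (f ^ k) w = (z ^ k) *ᵥ w ∧ (z ^ k) *ᵥ w ∈ W := by
      intro k
      induction k with
      | zero =>
        intro w hw
        simp [hw]
      | succ k ih =>
        intro w hw
        obtain ⟨h1, h3⟩ := ih w hw
        have h4 : (f ^ (k + 1)) w = (z ^ (k + 1)) *ᵥ w := by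
          rw [pow_succ', Module.End.mul_apply, h1, hfW _ h3, pow_succ', Matrix.mulVec_mulVec]
        refine ⟨h4, ?_⟩
        rw [pow_succ', ← Matrix.mulVec_mulVec]
        exact hzW _ h3
    have hpowW' : ∀ k : ℕ, ∀ w ∈ W', (f ^ k) w = w := by
      intro k
      induction k with
      | zero =>
        intro w _
        simp
      | succ k ih =>
        intro w hw
        rw [pow_succ', Module.End.mul_apply, ih w hw, hfW' w hw]
    have hfn : f ^ n = 1 := by
      apply LinearMap.ext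
      intro v
      obtain ⟨w, hw, w', hw', rfl⟩ := hdec v
      rw [map_add, (hpowW n w hw).1, hn w hw, hpowW' n w' hw']
      rfl
    have h1 : LinearMap.toMatrix' f = LinearMap.toMatrixAlgEquiv' f := rfl
    rw [h1, ← map_pow, hfn, map_one]

end Cfsg.Agent.Lib.Helper47.OFM
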